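import Cfsg.Agent.Lib.ModJordan.Tori
import Mathlib.GroupTheory.GroupAction.Quotient
import Mathlib.GroupTheory.Coset.Card
import Mathlib.Algebra.BigOperators.Ring.Finset
import Mathlib.Algebra.Order.BigOperators.Group.Finset
import Mathlib.Tactic.Ring

/-!
# Jordan's class equation argument
-/

set_option autoImplicit false
set_option linter.unusedSectionVars false

open scoped Classical

namespace Cfsg.Agent.Lib.ModJordan

universe u

/-- The order of the group divides a weighted orbit sum. -/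
theorem dvd_sum_of_stabilizer {Γ : Type*} [Group Γ] [Finite Γ] {α : Type*} [Fintype α]
    [MulAction Γ α] (w : α → ℕ) (F : ℕ) (hw : ∀ (g : Γ) a, w (g • a) = w a)
    (hst : ∀ a, Nat.card (MulAction.stabilizer Γ a) ∣ F * w a) :
    Nat.card Γ ∣ F * ∑ a, w a := by
  haveI : Fintype (MulAction.orbitRel.Quotient Γ α) := Fintype.ofFinite _
  rw [← Finset.sum_fiberwise Finset.univ (Quotient.mk'' : α → MulAction.orbitRel.Quotient Γ α),
    Finset.mul_sum]
  refine Finset.dvd_sum fun ω _ => ?_
  obtain ⟨a, rfl⟩ := Quotient.exists_rep ω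
  haveI : Fintype (MulAction.orbit Γ a) := Fintype.ofFinite _
  have hfib : (Finset.univ.filter fun b : α => (Quotient.mk'' b : MulAction.orbitRel.Quotient Γ α) =
      Quotient.mk (MulAction.orbitRel Γ α) a) = (MulAction.orbit Γ a).toFinset := by
    ext b
    simp only [Finset.mem_filter, Finset.mem_univ, true_and, Set.mem_toFinset]
    exact ⟨fun e => MulAction.orbitRel_apply.1 (Quotient.exact' e),
      fun e => Quotient.sound' (MulAction.orbitRel_apply.2 e)⟩
  rw [hfib, Finset.sum_congr rfl (g := fun _ => w a) fun b hb => by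
      obtain ⟨g, rfl⟩ := Set.mem_toFinset.1 hb
      exact hw g a, Finset.sum_const, smul_eq_mul, Set.toFinset_card]
  have h1 : Nat.card Γ = Fintype.card (MulAction.orbit Γ a) * Nat.card (MulAction.stabilizer Γ a) := by
    rw [← Nat.card_eq_fintype_card, ← Nat.card_prod]
    exact (Nat.card_congr (MulAction.orbitProdStabilizerEquivGroup Γ a)).symm
  rw [h1, mul_left_comm]
  exact Nat.mul_dvd_mul_left _ (hst a)

variable {G : Type u} [Group G] [Finite G] {Z : Subgroup G} [Z.Normal] {J d : ℕ} {φ : Subgroup G → ℕ}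

/-- The elements centralizing a coset of `Z` modulo `Z`. -/
def Stb (Z : Subgroup G) [Z.Normal] (q : G ⧸ Z) : Subgroup G :=
  (Subgroup.centralizer ({q} : Set (G ⧸ Z))).comap (QuotientGroup.mk' Z)

theorem mem_stb {q : G ⧸ Z} {g : G} : g ∈ Stb Z q ↔ (g : G ⧸ Z) * q = q * g := by
  rw [Stb, Subgroup.mem_comap, Subgroup.mem_centralizer_singleton_iff, QuotientGroup.mk'_apply]

theorem le_stb (q : G ⧸ Z) : Z ≤ Stb Z q := fun z hz => by
  rw [mem_stb, (QuotientGroup.eq_one_iff z).2 hz, one_mul, mul_one]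

theorem card_map (A : Subgroup G) : Nat.card (A.map (QuotientGroup.mk' Z)) = rk Z A := by
  rw [← Subgroup.relIndex_ker, QuotientGroup.ker_mk']
  rfl

theorem card_centralizer (q : G ⧸ Z) :
    Nat.card (Subgroup.centralizer ({q} : Set (G ⧸ Z))) = rk Z (Stb Z q) := by
  rw [← card_map, Stb, Subgroup.map_comap_eq_self_of_surjective (QuotientGroup.mk'_surjective Z)]

/-- The bound on the centralizers of the scattered elements. -/
def smallBound (J d L : ℕ) : ℕ := max (J * tol J d ^ (d + 1) * L) (tol J d * J)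

/-- The tiers. -/
def tier (J d : ℕ) : ℕ → ℕ
  | 0 => tol J d * tol J d
  | i + 1 => tier J d i + (smallBound J d (tier J d i)).factorial

/-- The bound of Jordan's argument. -/
def indexBound (J d : ℕ) : ℕ := tier J d (2 * (tol J d * J) + 1)

theorem tier_mono (J d : ℕ) : Monotone (tier J d) :=
  monotone_nat_of_le_succ fun _ => Nat.le_add_right _ _

/-- Conjugation of subgroups. -/
abbrev cg (g : G) (A : Subgroup G) : Subgroup G := A.map (MulAut.conj g).toMonoidHom

theorem mem_cg {g x : G} {A : Subgroup G} : x ∈ cg g A ↔ g⁻¹ * x * g ∈ A := by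
  constructor
  · rintro ⟨a, ha, rfl⟩
    simpa [mul_assoc] using ha
  · intro hx
    exact ⟨_, hx, by simp [mul_assoc]⟩

theorem cg_one (A : Subgroup G) : cg 1 A = A := by
  ext x
  simp [mem_cg]

theorem cg_mul (g k : G) (A : Subgroup G) : cg (g * k) A = cg g (cg k A) := by
  ext x
  simp [mem_cg, mul_assoc]

theorem cg_eq_self_iff {g : G} {A : Subgroup G} :
    cg g A = A ↔ g ∈ Subgroup.normalizer (A : Set G) := by
  rw [← inv_mem_iff (x := g), Subgroup.mem_normalizer_iff]
  constructor
  · intro e k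
    rw [inv_inv]
    conv_lhs => rw [← e]
    exact mem_cg
  · intro e
    ext x
    rw [mem_cg, e x, inv_inv]

theorem cg_center (hZ : Z ≤ Subgroup.center G) (g : G) : cg g Z = Z :=
  cg_eq_self_iff.2 (by rw [Subgroup.normalizer_eq_top Z]; trivial)

theorem rk_cg (hZ : Z ≤ Subgroup.center G) (g : G) (A : Subgroup G) : rk Z (cg g A) = rk Z A := by
  conv_lhs => rw [rk, ← cg_center hZ g]
  exact Subgroup.relIndex_map_map_of_injective Z A (MulAut.conj g).injective

theorem stb_conj (g : G) (q : G ⧸ Z) :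
    Stb Z ((g : G ⧸ Z) * q * (g : G ⧸ Z)⁻¹) = cg g (Stb Z q) := by
  ext x
  rw [mem_stb, mem_cg, mem_stb]
  simp only [QuotientGroup.mk_mul, QuotientGroup.mk_inv]
  generalize (x : G ⧸ Z) = a
  generalize (g : G ⧸ Z) = c
  constructor
  · intro e
    calc c⁻¹ * a * c * q = c⁻¹ * (a * (c * q * c⁻¹)) * c := by group
      _ = q * (c⁻¹ * a * c) := by rw [e]; group
  · intro e
    calc a * (c * q * c⁻¹) = c * ((c⁻¹ * a * c) * q) * c⁻¹ := by group
      _ = c * q * c⁻¹ * a := by rw [e]; group

namespace Data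

variable (h : Data Z J d φ)

include h

/-- The stabilizer of a nontrivial coset has an abelian subgroup of bounded index. -/
theorem stb_local {q : G ⧸ Z} (hq : q ≠ 1) :
    ∃ E, Z ≤ E ∧ Comm E ∧ E.relIndex (Stb Z q) ≤ J := by
  obtain ⟨y, rfl⟩ := QuotientGroup.mk_surjective q
  have hD : Comm (Subgroup.zpowers y ⊔ Z) := h.comm_sup_center (by
    rintro _ ⟨i, rfl⟩ _ ⟨j, rfl⟩
    exact (Commute.zpow_zpow (Commute.refl y) i j).eq)
  have hDZ : ¬ Subgroup.zpowers y ⊔ Z ≤ Z := fun hle => hq ((QuotientGroup.eq_one_iff y).2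
    (hle (Subgroup.mem_sup_left (Subgroup.mem_zpowers y))))
  obtain ⟨E, hZE, -, hEc, hidx⟩ := h.exists_local hD hDZ
  refine ⟨E, hZE, hEc, (ri_le_right ?_).trans hidx⟩
  have hfw : ∀ g ∈ Stb Z (y : G ⧸ Z), cg g (Subgroup.zpowers y ⊔ Z) ≤ Subgroup.zpowers y ⊔ Z := by
    intro g hg
    rw [cg, Subgroup.map_sup, MonoidHom.map_zpowers]
    refine sup_le ?_ ((cg_center h.center g).le.trans le_sup_right)
    rw [Subgroup.zpowers_le]
    show g * y * g⁻¹ ∈ Subgroup.zpowers y ⊔ Z
    have hz : y⁻¹ * (g * y * g⁻¹) ∈ Z := by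
      rw [← QuotientGroup.eq_one_iff]
      simp only [QuotientGroup.mk_mul, QuotientGroup.mk_inv]
      rw [mem_stb.1 hg]
      group
    have := Subgroup.mul_mem (Subgroup.zpowers y ⊔ Z)
      (Subgroup.mem_sup_left (Subgroup.mem_zpowers y)) (Subgroup.mem_sup_right hz)
    simpa using this
  intro g hg
  refine cg_eq_self_iff.1 (le_antisymm (hfw g hg) ?_)
  have h2 : cg g (cg g⁻¹ (Subgroup.zpowers y ⊔ Z)) ≤ cg g (Subgroup.zpowers y ⊔ Z) :=
    Subgroup.map_mono (hfw g⁻¹ (Subgroup.inv_mem _ hg))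
  rwa [← cg_mul, mul_inv_cancel, cg_one] at h2

/-- A coset is largely centralized in at most one top subgroup. -/
theorem assoc_unique {q : G ⧸ Z} (hq : q ≠ 1) {D D' : Subgroup G} (hD : Top Z J d φ D)
    (hD' : Top Z J d φ D') (hr : tol J d * tol J d < rk Z (Stb Z q ⊓ D))
    (hr' : tol J d * tol J d < rk Z (Stb Z q ⊓ D')) : D = D' := by
  obtain ⟨E, hZE, hEc, hidx⟩ := h.stb_local hq
  have key : ∀ D : Subgroup G, tol J d * tol J d < rk Z (Stb Z q ⊓ D) → tol J d < rk Z (E ⊓ D) := by
    intro D hr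
    have h1 : rk Z (Stb Z q ⊓ D) ≤ rk Z (E ⊓ D) * tol J d :=
      (rk_le hZE).trans (Nat.mul_le_mul (rk_mono (inf_le_inf_left _ inf_le_right))
        (((ri_le_right inf_le_left).trans hidx).trans h.J_le_tol))
    exact Nat.lt_of_mul_lt_mul_right (hr.trans_le h1)
  refine h.top_eq hD hD' ?_
  have h2 : ¬ E ⊓ D ≤ Z := one_lt_rk.1 (lt_of_le_of_lt h.one_le_tol (key D hr))
  have h3 : D.relIndex E ≤ tol J d := (h.share hD hZE hEc h2).trans (h.le_tol _)
  have h4 : rk Z (E ⊓ D') ≤ rk Z (D ⊓ D') * tol J d :=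
    (rk_le hD.1.1).trans (Nat.mul_le_mul (rk_mono (inf_le_inf_left _ inf_le_right))
      ((ri_le_right inf_le_left).trans h3))
  refine one_lt_rk.1 (Nat.lt_of_mul_lt_mul_right (a := tol J d) ?_)
  rw [one_mul]
  exact (key D' hr').trans_le h4

/-- A coset largely centralized in a top subgroup normalizes it. -/
theorem assoc_normalizes {g : G} (hg : (g : G ⧸ Z) ≠ 1) {D : Subgroup G} (hD : Top Z J d φ D)
    (hr : tol J d * tol J d < rk Z (Stb Z (g : G ⧸ Z) ⊓ D)) : g ∈ Subgroup.normalizer (D : Set G) := by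
  refine cg_eq_self_iff.1 (h.assoc_unique hg (h.top_conj g hD) hD ?_ hr)
  have h1 := stb_conj g (g : G ⧸ Z)
  rw [mul_inv_cancel_right] at h1
  rw [h1, cg, cg, ← Subgroup.map_inf _ _ _ (MulAut.conj g).injective]
  exact hr.trans_eq (rk_cg h.center g _).symm

/-- Jordan's bound. -/
theorem index_le : Z.index ≤ indexBound J d := by
  haveI : Finite (Subgroup G) := Finite.of_injective (fun A : Subgroup G => (A : Set G)) SetLike.coe_injective
  haveI : Fintype (Subgroup G) := Fintype.ofFinite _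
  haveI : Fintype (G ⧸ Z) := Fintype.ofFinite _
  set K := tol J d with hK
  let S : ℕ → Finset (Subgroup G) := fun L =>
    Finset.univ.filter fun D => Top Z J d φ D ∧ L < rk Z D
  let pts : Subgroup G → Finset (G ⧸ Z) := fun D =>
    (Finset.univ.filter fun q => q ∈ D.map (QuotientGroup.mk' Z)).erase 1
  have hfc : ∀ A : Subgroup G,
      (Finset.univ.filter fun q => q ∈ A.map (QuotientGroup.mk' Z)).card = rk Z A := fun A => by
    rw [← card_map, Nat.card_eq_fintype_card, ← Fintype.card_subtype]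
  have hpts : ∀ D, (pts D).card = rk Z D - 1 := fun D => by
    rw [Finset.card_erase_of_mem (Finset.mem_filter.2 ⟨Finset.mem_univ _, Subgroup.one_mem _⟩), hfc]
  have hN : Z.index = Fintype.card (G ⧸ Z) := by rw [Subgroup.index_eq_card, Nat.card_eq_fintype_card]
  have hdisj : ∀ L, ∑ D ∈ S L, (rk Z D - 1) ≤ Z.index - 1 := by
    intro L
    rw [← Finset.sum_congr rfl fun D _ => hpts D, ← Finset.card_biUnion]
    · rw [hN, ← Finset.card_univ, ← Finset.card_erase_of_mem (Finset.mem_univ (1 : G ⧸ Z))]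
      refine Finset.card_le_card fun q hq => ?_
      obtain ⟨D, -, hqD⟩ := Finset.mem_biUnion.1 hq
      exact Finset.mem_erase.2 ⟨(Finset.mem_erase.1 hqD).1, Finset.mem_univ _⟩
    · intro D hD D' hD' hne
      rw [Function.onFun, Finset.disjoint_left]
      intro q hq hq'
      obtain ⟨hq1, hqD⟩ := Finset.mem_erase.1 hq
      obtain ⟨a, ha, rfl⟩ := (Finset.mem_filter.1 hqD).2
      obtain ⟨b, hb, hab⟩ := (Finset.mem_filter.1 (Finset.mem_erase.1 hq').2).2
      refine hne (h.top_eq (Finset.mem_filter.1 hD).2.1 (Finset.mem_filter.1 hD').2.1 fun hle =>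
        hq1 ((QuotientGroup.eq_one_iff a).2 (hle ⟨ha, ?_⟩)))
      have hz : b⁻¹ * a ∈ Z := QuotientGroup.eq.1 hab
      have := D'.mul_mem hb ((Finset.mem_filter.1 hD').2.1.1.1 hz)
      simpa using this
  have hnorm : ∀ D ∈ S (K * K), D.relIndex (Subgroup.normalizer (D : Set G)) ≤ K * J := by
    intro D hD
    obtain ⟨-, hDt, hr⟩ := Finset.mem_filter.1 hD
    exact h.relIndex_normalizer_le hDt
      (lt_of_le_of_lt (h.J_le_tol.trans (Nat.le_mul_of_pos_left _ h.one_le_tol)) hr)
  have hZN : ∀ D : Subgroup G, Z.index = Z.relIndex (Subgroup.normalizer (D : Set G)) *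
      (Subgroup.normalizer (D : Set G)).index := fun D =>
    (Subgroup.relIndex_mul_index (h.center_le_normalizer D)).symm
  -- few sizes
  have hsizes : ((S (K * K)).image (rk Z)).card ≤ 2 * (K * J) := by
    by_contra hgt
    rw [not_le] at hgt
    have h1 : ∀ s ∈ (S (K * K)).image (rk Z), Z.index ≤
        ∑ D ∈ (S (K * K)).filter (fun D => rk Z D = s), 2 * (K * J) * (rk Z D - 1) := by
      intro s hs
      obtain ⟨D, hD, rfl⟩ := Finset.mem_image.1 hs
      rw [Finset.sum_congr rfl (g := fun _ => 2 * (K * J) * (rk Z D - 1))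
        fun D' hD' => by rw [(Finset.mem_filter.1 hD').2], Finset.sum_const, smul_eq_mul, hZN D,
        mul_comm (Z.relIndex _)]
      obtain ⟨-, hDt, hr⟩ := Finset.mem_filter.1 hD
      refine Nat.mul_le_mul ?_ ?_
      · rw [← Fintype.card_coe, ← Nat.card_eq_fintype_card, Subgroup.index_eq_card]
        refine Nat.card_le_card_of_injective (fun x => ⟨cg (x : G ⧸ _).out D, Finset.mem_filter.2
          ⟨Finset.mem_filter.2 ⟨Finset.mem_univ _, h.top_conj _ hDt, by rw [rk_cg h.center]; exact hr⟩,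
            rk_cg h.center _ _⟩⟩) fun x y e => ?_
        have e' : cg (x : G ⧸ _).out D = cg (y : G ⧸ _).out D := congrArg Subtype.val e
        rw [← x.out_eq', ← y.out_eq', QuotientGroup.eq, ← cg_eq_self_iff, cg_mul, ← e', ← cg_mul,
          inv_mul_cancel, cg_one]
      · rw [← Subgroup.relIndex_mul_relIndex Z D _ hDt.1.1 Subgroup.le_normalizer,
          mul_comm (2 * (K * J))]
        have h2 : 1 ≤ rk Z D - 1 := by
          have := one_lt_rk.2 hDt.2.1
          omega
        have h3 := hnorm D hD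
        calc Z.relIndex D * D.relIndex (Subgroup.normalizer (D : Set G))
            ≤ (2 * (rk Z D - 1)) * (K * J) := Nat.mul_le_mul (by unfold rk at *; omega) h3
          _ = (rk Z D - 1) * (2 * (K * J)) := by ring
    have h2 : ((S (K * K)).image (rk Z)).card * Z.index ≤ 2 * (K * J) * (Z.index - 1) := by
      rw [← smul_eq_mul, ← Finset.sum_const]
      refine (Finset.sum_le_sum h1).trans ?_
      rw [Finset.sum_fiberwise_of_maps_to (fun D hD => Finset.mem_image_of_mem _ hD), ← Finset.mul_sum]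
      exact Nat.mul_le_mul_left _ (hdisj _)
    have h3 : 1 ≤ Z.index := Nat.one_le_iff_ne_zero.2 Subgroup.index_ne_zero_of_finite
    have h4 := Nat.mul_lt_mul_of_pos_right hgt h3
    have h5 := Nat.mul_le_mul_left (2 * (K * J)) (Nat.sub_le Z.index 1)
    omega
  -- a gap
  obtain ⟨i, hi, hgap⟩ : ∃ i ≤ 2 * (K * J), ∀ D ∈ S (tier J d i), tier J d (i + 1) < rk Z D := by
    by_contra hno
    push Not at hno
    choose D hD hle using hno
    have hmem : ∀ (i : ℕ) (hi : i ≤ 2 * (K * J)), D i hi ∈ S (K * K) := fun i hi =>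
      Finset.mem_filter.2 ⟨Finset.mem_univ _, (Finset.mem_filter.1 (hD i hi)).2.1,
        lt_of_le_of_lt (tier_mono J d (Nat.zero_le i)) (Finset.mem_filter.1 (hD i hi)).2.2⟩
    have hinj : ∀ (i : ℕ) (hi : i ≤ 2 * (K * J)) (j : ℕ) (hj : j ≤ 2 * (K * J)), i < j →
        rk Z (D i hi) ≠ rk Z (D j hj) := fun i hi j hj hij => by
      have e1 := hle i hi
      have e2 : tier J d (i + 1) ≤ tier J d j := tier_mono J d hij
      have e3 := (Finset.mem_filter.1 (hD j hj)).2.2
      omega
    have := Finset.card_le_card_of_injOn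
      (s := (Finset.univ : Finset (Fin (2 * (K * J) + 1)))) (t := (S (K * K)).image (rk Z))
      (fun i => rk Z (D i.1 (Nat.le_of_lt_succ i.2)))
      (fun i _ => Finset.mem_image_of_mem _ (hmem _ _)) fun i _ j _ e => by
        rcases lt_trichotomy i.1 j.1 with hlt | heq | hlt
        · exact absurd e (hinj _ _ _ _ hlt)
        · exact Fin.ext heq
        · exact absurd e.symm (hinj _ _ _ _ hlt)
    rw [Finset.card_univ, Fintype.card_fin] at this
    omega
  set L := tier J d i with hLdef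
  have hKL : K * K ≤ L := tier_mono J d (Nat.zero_le i)
  have hSK : ∀ D ∈ S L, D ∈ S (K * K) := fun D hD => Finset.mem_filter.2
    ⟨Finset.mem_univ _, (Finset.mem_filter.1 hD).2.1, lt_of_le_of_lt hKL (Finset.mem_filter.1 hD).2.2⟩
  set F := (smallBound J d L).factorial with hF
  have hFpos : 1 ≤ F := Nat.factorial_pos _
  have hFtier : F ≤ tier J d (i + 1) := Nat.le_add_left _ _
  let U : Subgroup G → Finset (G ⧸ Z) := fun D => Finset.univ.filter fun q =>
    q ∈ (Subgroup.normalizer (D : Set G)).map (QuotientGroup.mk' Z) ∧ K * K < rk Z (Stb Z q ⊓ D)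
  let Sm : G ⧸ Z → Prop := fun q => q ≠ 1 ∧ ∀ D ∈ S L, rk Z (Stb Z q ⊓ D) ≤ K * K
  have hU1 : ∀ D ∈ S L, (1 : G ⧸ Z) ∈ U D := fun D hD => Finset.mem_filter.2
    ⟨Finset.mem_univ _, Subgroup.one_mem _, by
      rw [inf_eq_right.2 fun x _ => mem_stb.2 (by rw [mul_one, one_mul])]
      exact lt_of_le_of_lt hKL (Finset.mem_filter.1 hD).2.2⟩
  have hcount : Z.index + (S L).card =
      (Finset.univ.filter Sm).card + ∑ D ∈ S L, (U D).card + 1 := by
    have hpart : Finset.univ.erase (1 : G ⧸ Z) =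
        Finset.univ.filter Sm ∪ (S L).biUnion fun D => (U D).erase 1 := by
      ext q
      simp only [Finset.mem_erase, Finset.mem_union, Finset.mem_biUnion]
      constructor
      · rintro ⟨hq, -⟩
        by_cases hs : ∀ D ∈ S L, rk Z (Stb Z q ⊓ D) ≤ K * K
        · exact Or.inl (Finset.mem_filter.2 ⟨Finset.mem_univ _, hq, hs⟩)
        · push Not at hs
          obtain ⟨D, hD, hr⟩ := hs
          obtain ⟨g, rfl⟩ := QuotientGroup.mk_surjective q
          exact Or.inr ⟨D, hD, hq, Finset.mem_filter.2 ⟨Finset.mem_univ _,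
            ⟨g, h.assoc_normalizes hq (Finset.mem_filter.1 hD).2.1 hr, rfl⟩, hr⟩⟩
      · rintro (hs | ⟨D, -, hq, -⟩)
        · exact ⟨(Finset.mem_filter.1 hs).2.1, Finset.mem_univ _⟩
        · exact ⟨hq, Finset.mem_univ _⟩
    have hd1 : Disjoint (Finset.univ.filter Sm) ((S L).biUnion fun D => (U D).erase 1) := by
      rw [Finset.disjoint_left]
      intro q hs hq
      obtain ⟨D, hD, hqD⟩ := Finset.mem_biUnion.1 hq
      exact not_lt.2 ((Finset.mem_filter.1 hs).2.2 D hD)
        (Finset.mem_filter.1 (Finset.mem_erase.1 hqD).2).2.2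
    have hd2 : ((S L : Finset (Subgroup G)) : Set (Subgroup G)).PairwiseDisjoint
        fun D => (U D).erase 1 := by
      intro D hD D' hD' hne
      rw [Function.onFun, Finset.disjoint_left]
      intro q hq hq'
      exact hne (h.assoc_unique (Finset.mem_erase.1 hq).1 (Finset.mem_filter.1 hD).2.1
        (Finset.mem_filter.1 hD').2.1 (Finset.mem_filter.1 (Finset.mem_erase.1 hq).2).2.2
        (Finset.mem_filter.1 (Finset.mem_erase.1 hq').2).2.2)
    have h1 := congrArg Finset.card hpart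
    rw [Finset.card_union_of_disjoint hd1, Finset.card_biUnion hd2,
      Finset.card_erase_of_mem (Finset.mem_univ _), Finset.card_univ, ← hN] at h1
    have h2 : ∑ D ∈ S L, ((U D).erase 1).card + (S L).card = ∑ D ∈ S L, (U D).card := by
      rw [Finset.card_eq_sum_ones (S L), ← Finset.sum_add_distrib]
      exact Finset.sum_congr rfl fun D hD => Finset.card_erase_add_one (hU1 D hD)
    have : 1 ≤ Z.index := Nat.one_le_iff_ne_zero.2 Subgroup.index_ne_zero_of_finite
    omega
  have hUconj : ∀ (g : G) (D : Subgroup G), (U (cg g D)).card = (U D).card := by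
    have hle : ∀ (g : G) (D : Subgroup G), (U D).card ≤ (U (cg g D)).card := fun g D => by
      refine Finset.card_le_card_of_injOn (fun q => (g : G ⧸ Z) * q * (g : G ⧸ Z)⁻¹) (fun q hq => ?_)
        fun a _ b _ e => mul_left_cancel (mul_right_cancel e)
      obtain ⟨-, ⟨n, hn, rfl⟩, hr⟩ := Finset.mem_filter.1 hq
      refine Finset.mem_filter.2 ⟨Finset.mem_univ _, ⟨g * n * g⁻¹, ?_, by simp⟩, ?_⟩
      · rw [SetLike.mem_coe] at hn ⊢
        rw [← cg_eq_self_iff] at hn ⊢
        rw [← cg_mul, inv_mul_cancel_right, cg_mul, hn]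
      · rw [stb_conj, cg, cg, ← Subgroup.map_inf _ _ _ (MulAut.conj g).injective]
        exact hr.trans_eq (rk_cg h.center g _).symm
    intro g D
    refine le_antisymm ?_ (hle g D)
    have h1 := hle g⁻¹ (cg g D)
    rwa [← cg_mul, inv_mul_cancel, cg_one] at h1
  have hdvdU : ∀ D ∈ S L, rk Z D ∣ (U D).card := by
    intro D hD
    let Db := D.map (QuotientGroup.mk' Z)
    have hclosed : ∀ q ∈ U D, ∀ x ∈ Db, q * x ∈ U D := by
      intro q hq x hx
      obtain ⟨-, hqN, hr⟩ := Finset.mem_filter.1 hq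
      refine Finset.mem_filter.2 ⟨Finset.mem_univ _,
        Subgroup.mul_mem _ hqN (Subgroup.map_mono Subgroup.le_normalizer hx), ?_⟩
      refine hr.trans_le (rk_mono fun a ha => ⟨mem_stb.2 ?_, ha.2⟩)
      obtain ⟨b, hb, rfl⟩ := hx
      have e1 := mem_stb.1 ha.1
      have e2 : (a : G ⧸ Z) * (b : G ⧸ Z) = (b : G ⧸ Z) * a := by
        rw [← QuotientGroup.mk_mul, ← QuotientGroup.mk_mul, (Finset.mem_filter.1 hD).2.1.1.2.1 a ha.2 b hb]
      rw [QuotientGroup.mk'_apply, ← mul_assoc, e1, mul_assoc, e2, mul_assoc]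
    have hpre : (QuotientGroup.mk ⁻¹' ((QuotientGroup.mk : G ⧸ Z → (G ⧸ Z) ⧸ Db) '' (U D : Set (G ⧸ Z))))
        = (U D : Set (G ⧸ Z)) := by
      refine Set.Subset.antisymm (fun q hq => ?_) (Set.subset_preimage_image _ _)
      obtain ⟨q', hq', e⟩ := hq
      have := hclosed q' hq' _ (QuotientGroup.eq.1 e)
      rwa [mul_inv_cancel_left] at this
    have h1 := Nat.card_congr (QuotientGroup.preimageMkEquivSubgroupProdSet Db
      ((QuotientGroup.mk : G ⧸ Z → (G ⧸ Z) ⧸ Db) '' (U D : Set (G ⧸ Z))))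
    rw [Nat.card_congr (Equiv.setCongr hpre), Nat.card_prod, card_map, Nat.card_coe_set_eq,
      Set.ncard_coe_finset] at h1
    exact Dvd.intro _ h1.symm
  have hdvd1 : Z.index ∣ F * (Finset.univ.filter Sm).card := by
    have hSm : ∀ (g q : G ⧸ Z), Sm q → Sm (g * q * g⁻¹) := by
      intro g q hq
      obtain ⟨a, rfl⟩ := QuotientGroup.mk_surjective g
      refine ⟨fun e => hq.1 (by simpa [mul_assoc] using congrArg (fun z => (a : G ⧸ Z)⁻¹ * z * a) e), fun D hD => ?_⟩
      have h1 := hq.2 (cg a⁻¹ D) (Finset.mem_filter.2 ⟨Finset.mem_univ _,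
        h.top_conj _ (Finset.mem_filter.1 hD).2.1, by
          rw [rk_cg h.center]; exact (Finset.mem_filter.1 hD).2.2⟩)
      have e : Stb Z ((a : G ⧸ Z) * q * (a : G ⧸ Z)⁻¹) ⊓ D = cg a (Stb Z q ⊓ cg a⁻¹ D) := by
        rw [cg, Subgroup.map_inf _ _ _ (MulAut.conj a).injective, stb_conj]
        congr 1
        show D = cg a (cg a⁻¹ D)
        rw [← cg_mul, mul_inv_cancel, cg_one]
      rw [e, rk_cg h.center]
      exact h1
    letI : MulAction (G ⧸ Z) {q : G ⧸ Z // Sm q} :=
      { smul := fun g q => ⟨g * q.1 * g⁻¹, hSm g q.1 q.2⟩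
        one_smul := fun q => Subtype.ext (show 1 * q.1 * 1⁻¹ = q.1 by simp)
        mul_smul := fun g k q => Subtype.ext
          (show g * k * q.1 * (g * k)⁻¹ = g * (k * q.1 * k⁻¹) * g⁻¹ by group) }
    have h1 := dvd_sum_of_stabilizer (Γ := G ⧸ Z) (α := {q : G ⧸ Z // Sm q}) (fun _ => 1) F
      (fun _ _ => rfl) (fun q => by
        rw [mul_one]
        have hstab : MulAction.stabilizer (G ⧸ Z) q = Subgroup.centralizer ({q.1} : Set (G ⧸ Z)) := by
          ext g
          rw [MulAction.mem_stabilizer_iff, Subgroup.mem_centralizer_singleton_iff, ← Subtype.coe_inj]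
          show g * q.1 * g⁻¹ = q.1 ↔ _
          rw [mul_inv_eq_iff_eq_mul]
        rw [hstab, card_centralizer]
        refine Nat.dvd_factorial (ri_pos _ _) ?_
        obtain ⟨E, hZE, hEc, hidx⟩ := h.stb_local q.2.1
        refine le_trans ?_ (le_max_left _ _)
        refine (rk_le hZE).trans ?_
        rw [mul_assoc, mul_comm (rk Z (E ⊓ Stb Z q.1))]
        refine Nat.mul_le_mul hidx ?_
        by_contra hgt
        obtain ⟨D, hD, hr⟩ := h.exists_top (le_inf hZE (le_stb _)) (hEc.mono inf_le_left)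
          (le_trans (Nat.one_le_iff_ne_zero.2 (Nat.mul_ne_zero (Nat.one_le_iff_ne_zero.1 h.one_le_tol)
            (Nat.one_le_iff_ne_zero.1 h.one_le_tol))) hKL) (not_le.1 hgt)
        have h2 := q.2.2 D (Finset.mem_filter.2 ⟨Finset.mem_univ _, hD,
          hr.trans_le (rk_mono inf_le_right)⟩)
        exact absurd (lt_of_le_of_lt hKL (hr.trans_le (rk_mono (inf_le_inf_right _ inf_le_right))))
          (not_lt.2 h2))
    rw [Finset.sum_const, smul_eq_mul, mul_one, Finset.card_univ, Fintype.card_subtype,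
      ← Subgroup.index_eq_card] at h1
    exact h1
  have hdvd2 : Z.index ∣ F * ∑ D ∈ S L, (U D).card := by
    have hstable : ∀ (g : G) (D : Subgroup G), D ∈ S L → cg g D ∈ S L := fun g D hD =>
      Finset.mem_filter.2 ⟨Finset.mem_univ _, h.top_conj g (Finset.mem_filter.1 hD).2.1, by
        rw [rk_cg h.center]; exact (Finset.mem_filter.1 hD).2.2⟩
    letI : MulAction G {D // D ∈ S L} :=
      { smul := fun g D => ⟨cg g D.1, hstable g D.1 D.2⟩
        one_smul := fun D => Subtype.ext (cg_one D.1)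
        mul_smul := fun g k D => Subtype.ext (cg_mul g k D.1) }
    have h1 := dvd_sum_of_stabilizer (Γ := G) (α := {D // D ∈ S L}) (fun D => (U D.1).card)
      (F * Nat.card Z) (fun g D => hUconj g D.1) (fun D => by
        have hstab : MulAction.stabilizer G D = Subgroup.normalizer (D.1 : Set G) := by
          ext g
          rw [MulAction.mem_stabilizer_iff, ← Subtype.coe_inj]
          exact cg_eq_self_iff
        rw [hstab]
        have hDt := (Finset.mem_filter.1 D.2).2.1
        have hc : Nat.card (Subgroup.normalizer (D.1 : Set G)) = Nat.card Z *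
            (rk Z D.1 * D.1.relIndex (Subgroup.normalizer (D.1 : Set G))) := by
          rw [rk, Subgroup.relIndex_mul_relIndex Z D.1 _ hDt.1.1 Subgroup.le_normalizer,
            ← Subgroup.relIndex_bot_left (H := Z), Subgroup.relIndex_mul_relIndex _ _ _ bot_le
              (h.center_le_normalizer _), Subgroup.relIndex_bot_left]
        rw [hc, mul_comm F, mul_assoc, mul_comm (rk Z D.1)]
        exact Nat.mul_dvd_mul_left _ (Nat.mul_dvd_mul
          (Nat.dvd_factorial (ri_pos _ _) ((hnorm _ (hSK _ D.2)).trans (le_max_right _ _)))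
          (hdvdU _ D.2)))
    rw [← Subgroup.card_mul_index Z, mul_comm F, mul_assoc] at h1
    have h2 := (Nat.mul_dvd_mul_iff_left Nat.card_pos).1 h1
    rwa [Finset.univ_eq_attach, Finset.sum_attach (S L) fun D => (U D).card] at h2
  -- conclusion
  have hbig : ∀ D ∈ S L, F < rk Z D := fun D hD => lt_of_le_of_lt hFtier (hgap D hD)
  rcases Nat.lt_trichotomy (S L).card 1 with hT | hT | hT
  · have hT0 : (S L).card = 0 := by omega
    rw [Finset.card_eq_zero] at hT0
    have hs0 : ∑ D ∈ S L, (U D).card = 0 := by rw [hT0]; rfl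
    rw [hs0, Finset.card_eq_zero.2 hT0, add_zero, add_zero] at hcount
    have h1 : Z.index ∣ F * Z.index := dvd_mul_left _ _
    nth_rw 2 [hcount] at h1
    rw [mul_add, mul_one] at h1
    have h2 := (Nat.dvd_add_right hdvd1).1 h1
    exact (Nat.le_of_dvd hFpos h2).trans (hFtier.trans (tier_mono J d (Nat.succ_le_succ hi)))
  · exfalso
    obtain ⟨D, hD⟩ := Finset.card_eq_one.1 hT
    have hDS : D ∈ S L := by rw [hD]; exact Finset.mem_singleton_self D
    have hnormal : D.Normal := by
      rw [← Subgroup.normalizer_eq_top_iff, eq_top_iff]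
      intro g _
      refine cg_eq_self_iff.1 ?_
      have : cg g D ∈ S L := Finset.mem_filter.2 ⟨Finset.mem_univ _,
        h.top_conj g (Finset.mem_filter.1 hDS).2.1, by
          rw [rk_cg h.center]; exact (Finset.mem_filter.1 hDS).2.2⟩
      rw [hD] at this
      exact Finset.mem_singleton.1 this
    exact (Finset.mem_filter.1 hDS).2.1.2.1 (h.normal D hnormal (Finset.mem_filter.1 hDS).2.1.1.2.1)
  · exfalso
    have h1 : Z.index ∣ F * (Z.index + ((S L).card - 1)) := by
      rw [show Z.index + ((S L).card - 1) =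
        (Finset.univ.filter Sm).card + ∑ D ∈ S L, (U D).card by omega, mul_add]
      exact Nat.dvd_add hdvd1 hdvd2
    rw [mul_add] at h1
    have h2 := (Nat.dvd_add_right (dvd_mul_left _ _)).1 h1
    have hpos : 0 < F * ((S L).card - 1) := Nat.mul_pos hFpos (by omega)
    have h3 := Nat.le_of_dvd hpos h2
    have h4 : (S L).card * F ≤ Z.index - 1 := by
      refine le_trans ?_ (hdisj L)
      rw [← smul_eq_mul, ← Finset.sum_const]
      exact Finset.sum_le_sum fun D hD => by have := hbig D hD; omega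
    have h5 : F * ((S L).card - 1) ≤ (S L).card * F := by
      rw [mul_comm]; exact Nat.mul_le_mul_right _ (Nat.sub_le _ _)
    have : 1 ≤ Z.index := Nat.one_le_iff_ne_zero.2 Subgroup.index_ne_zero_of_finite
    omega

end Data

end Cfsg.Agent.Lib.ModJordan
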