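import Cfsg.Agent.Lib.ModJordan.Count
import Mathlib.RepresentationTheory.Basic
import Mathlib.LinearAlgebra.Eigenspace.Triangularizable
import Mathlib.LinearAlgebra.FiniteDimensional.Basic
import Mathlib.LinearAlgebra.Dimension.Free
import Mathlib.GroupTheory.PGroup
import Mathlib.Data.Nat.Factorization.Basic
import Mathlib.Algebra.CharP.Defs
import Mathlib.Algebra.Group.Action.Faithful
import Mathlib.GroupTheory.Perm.Basic

/-!
# Linear groups with small Sylow subgroups in positive characteristic
-/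

set_option autoImplicit false
set_option linter.unusedSectionVars false

open scoped Classical

namespace Cfsg.Agent.Lib.ModJordan

universe u v w

/-- The loss in the reducible case. -/
def redBound (p m J : ℕ) : ℕ := J * J * (p ^ m).factorial * p ^ m

/-- The bound in terms of the dimension. -/
def linBound (p m : ℕ) : ℕ → ℕ
  | 0 => 1
  | n + 1 => max ((n + 1) * redBound p m (linBound p m n))
      (indexBound ((n + 1) * redBound p m (linBound p m n)) ((n + 1) * (n + 1)))

/-- A subgroup given by a finite submonoid. -/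
def ofFiniteClosed {G : Type u} [Group G] [Finite G] (S : Submonoid G) : Subgroup G :=
  { S with
    inv_mem' := fun {g} hg => by
      have h1 : g ^ (orderOf g - 1) = g⁻¹ := by
        rw [eq_inv_iff_mul_eq_one, ← pow_succ, Nat.sub_add_cancel (orderOf_pos g), pow_orderOf_eq_one]
      show g⁻¹ ∈ S
      rw [← h1]
      exact S.pow_mem hg _ }

variable {p m : ℕ} [hp : Fact p.Prime]

theorem card_pgroup_le {G : Type u} [Group G] [Finite G] (hm : (Nat.card G).factorization p ≤ m)
    (e : ℕ) (hd : p ^ e ∣ Nat.card G) : p ^ e ≤ p ^ m :=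
  Nat.pow_le_pow_right hp.out.pos
    (((hp.out.pow_dvd_iff_le_factorization Nat.card_pos.ne').1 hd).trans hm)

theorem factorization_subgroup {G : Type u} [Group G] [Finite G] (hm : (Nat.card G).factorization p ≤ m)
    (H : Subgroup G) : (Nat.card H).factorization p ≤ m :=
  ((Nat.factorization_le_iff_dvd Nat.card_pos.ne' Nat.card_pos.ne').2 H.card_subgroup_dvd_card p).trans hm

variable {k : Type v} [Field k] [IsAlgClosed k] [CharP k p]

/-- The statement at one dimension. -/
def LinJordan (p m : ℕ) (k : Type v) [Field k] (n J : ℕ) : Prop :=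
  ∀ (G : Type u) [Group G] [Finite G] (V : Type w) [AddCommGroup V] [Module k V] [FiniteDimensional k V]
    (ρ : Representation k G V), Function.Injective ρ → Module.finrank k V ≤ n →
    (Nat.card G).factorization p ≤ m → ∃ A : Subgroup G, Comm A ∧ A.index ≤ J

variable {G : Type u} [Group G] [Finite G] {V : Type w} [AddCommGroup V] [Module k V]
  [FiniteDimensional k V]

/-- The abelian subgroup coming from one factor. -/
theorem exists_of_factor {n J : ℕ} (ih : LinJordan.{u, v, w} p m k n J) {U : Type w} [AddCommGroup U]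
    [Module k U] [FiniteDimensional k U] (σ : Representation k G U) (hU : Module.finrank k U ≤ n)
    (hm : (Nat.card G).factorization p ≤ m) :
    ∃ A : Subgroup G, A.index ≤ J ∧ ∀ a ∈ A, ∀ b ∈ A, σ (a * b) = σ (b * a) := by
  let σ₀ : G →* Module.End k U := σ
  let τ : Representation k (G ⧸ σ₀.ker) U := QuotientGroup.lift σ₀.ker σ₀ le_rfl
  have hτ : Function.Injective τ := by
    intro x y e
    obtain ⟨a, rfl⟩ := QuotientGroup.mk_surjective x
    obtain ⟨b, rfl⟩ := QuotientGroup.mk_surjective y
    refine QuotientGroup.eq.2 ?_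
    have e' : σ₀ a = σ₀ b := e
    rw [MonoidHom.mem_ker, map_mul, ← e', ← map_mul, inv_mul_cancel, map_one]
  have hd : Nat.card (G ⧸ σ₀.ker) ∣ Nat.card G := σ₀.ker.card_quotient_dvd_card
  obtain ⟨A, hA, hidx⟩ := ih (G ⧸ σ₀.ker) U τ hτ hU
    (((Nat.factorization_le_iff_dvd Nat.card_pos.ne' Nat.card_pos.ne').2 hd p).trans hm)
  refine ⟨A.comap (QuotientGroup.mk' σ₀.ker), ?_, fun a ha b hb => ?_⟩
  · rw [Subgroup.index_comap_of_surjective _ (QuotientGroup.mk'_surjective _)]
    exact hidx
  · have h1 := hA _ ha _ hb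
    rw [← map_mul, ← map_mul] at h1
    exact congrArg τ h1

/-- The reducible case. -/
theorem exists_comm_of_invariant {n J : ℕ} (ih : LinJordan.{u, v, w} p m k n J)
    (ρ : Representation k G V) (hρ : Function.Injective ρ) (hn : Module.finrank k V ≤ n + 1)
    (hm : (Nat.card G).factorization p ≤ m) (W : Submodule k V) (hW0 : W ≠ ⊥) (hW1 : W ≠ ⊤)
    (hW : ∀ g : G, ∀ v ∈ W, ρ g v ∈ W) :
    ∃ A : Subgroup G, Comm A ∧ A.index ≤ redBound p m J := by
  let ρ₁ : Representation k G W :=
    { toFun := fun g => (ρ g).restrict (hW g)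
      map_one' := LinearMap.ext fun v => Subtype.ext (by simp)
      map_mul' := fun a b => LinearMap.ext fun v => Subtype.ext (by simp) }
  let ρ₂ : Representation k G (V ⧸ W) :=
    { toFun := fun g => W.mapQ W (ρ g) (hW g)
      map_one' := Submodule.linearMap_qext _ (LinearMap.ext fun v => by simp)
      map_mul' := fun a b => Submodule.linearMap_qext _ (LinearMap.ext fun v => by simp) }
  have hd1 : Module.finrank k W ≤ n := by
    have := Submodule.finrank_lt hW1
    omega
  have hd2 : Module.finrank k (V ⧸ W) ≤ n := by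
    have h1 := W.finrank_quotient_add_finrank
    have h2 : 1 ≤ Module.finrank k W := Submodule.one_le_finrank_iff.2 hW0
    omega
  obtain ⟨A₁, hA₁, hc₁⟩ := exists_of_factor ih ρ₁ hd1 hm
  obtain ⟨A₂, hA₂, hc₂⟩ := exists_of_factor ih ρ₂ hd2 hm
  let ψ₁ : G →* Module.End k W := ρ₁
  let ψ₂ : G →* Module.End k (V ⧸ W) := ρ₂
  let K : Subgroup G := ψ₁.ker ⊓ ψ₂.ker
  have hKexp : ∀ g ∈ K, g ^ p = 1 := by
    intro g hg
    have hfix : ∀ v ∈ W, ρ g v = v := fun v hv =>
      congrArg Subtype.val (LinearMap.congr_fun (hg.1 : ρ₁ g = 1) ⟨v, hv⟩)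
    have hmod : ∀ v, ρ g v - v ∈ W := fun v => by
      rw [← Submodule.Quotient.eq]
      exact LinearMap.congr_fun (hg.2 : ρ₂ g = 1) (Submodule.Quotient.mk v)
    have hpow : ∀ (j : ℕ) (v : V), ρ (g ^ j) v = v + (j : k) • (ρ g v - v) := by
      intro j
      induction j with
      | zero => intro v; simp
      | succ j ihj =>
        intro v
        rw [pow_succ', map_mul, Module.End.mul_apply, ihj, map_add, map_smul, hfix _ (hmod v),
          Nat.cast_succ, add_smul, one_smul]
        abel
    refine hρ (LinearMap.ext fun v => ?_)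
    rw [hpow p v, CharP.cast_eq_zero k p, zero_smul, add_zero, map_one]
    rfl
  obtain ⟨e, he⟩ := IsPGroup.iff_card.1 (show IsPGroup p K from
    fun g => ⟨1, Subtype.ext (by rw [pow_one]; exact hKexp g g.2)⟩)
  have hKcard : Nat.card K ≤ p ^ m := he ▸ card_pgroup_le hm e (he ▸ K.card_subgroup_dvd_card)
  haveI : Fintype K := Fintype.ofFinite K
  let π : G →* Equiv.Perm K := (MulAut.toPerm K).comp MulAut.conjNormal
  have hπ : π.ker.index ≤ (p ^ m).factorial := by
    rw [Subgroup.index_ker]
    refine (Nat.card_le_card_of_injective _ Subtype.val_injective).trans ?_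
    rw [Nat.card_eq_fintype_card, Fintype.card_perm, ← Nat.card_eq_fintype_card]
    exact Nat.factorial_le hKcard
  let A' : Subgroup G := (A₁ ⊓ A₂) ⊓ π.ker
  have hA'idx : A'.index ≤ J * J * (p ^ m).factorial :=
    Subgroup.index_inf_le.trans (Nat.mul_le_mul
      (Subgroup.index_inf_le.trans (Nat.mul_le_mul hA₁ hA₂)) hπ)
  have hcomK : ∀ a ∈ A', ∀ c ∈ K, a * c = c * a := fun a ha c hc => by
    have h1 := congrArg (fun z : Equiv.Perm K => (z ⟨c, hc⟩ : G)) (MonoidHom.mem_ker.1 ha.2)
    simp [π] at h1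
    have h2 : ((MulAut.conjNormal a ⟨c, hc⟩ : K) : G) = c := h1
    rw [MulAut.conjNormal_apply] at h2
    exact mul_inv_eq_iff_eq_mul.1 h2
  have hcomm : ∀ a ∈ A', ∀ b ∈ A', a * b * a⁻¹ * b⁻¹ ∈ K := fun a ha b hb => by
    have key : ∀ {M : Type w} [AddCommGroup M] [Module k M] (ψ : G →* Module.End k M),
        ψ (a * b) = ψ (b * a) → a * b * a⁻¹ * b⁻¹ ∈ ψ.ker := fun ψ e => by
      rw [MonoidHom.mem_ker, show a * b * a⁻¹ * b⁻¹ = a * b * (b * a)⁻¹ by group, map_mul, e, ← map_mul,
        mul_inv_cancel, map_one]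
    exact ⟨key ψ₁ (hc₁ a ha.1.1 b hb.1.1), key ψ₂ (hc₂ a ha.1.2 b hb.1.2)⟩
  let A : Subgroup G := A' ⊓ Subgroup.centralizer (A' : Set G)
  have hA : Comm A := fun a ha b hb => (Subgroup.mem_centralizer_iff.1 hb.2) a ha.1
  have hpow : ∀ a ∈ A', a ^ p ∈ A := by
    intro a ha
    refine ⟨A'.pow_mem ha p, Subgroup.mem_centralizer_iff.2 fun b hb => ?_⟩
    have hc := hcomm a ha b hb
    have hswap : ∀ j : ℕ, a ^ j * b = (a * b * a⁻¹ * b⁻¹) ^ j * (b * a ^ j) := by
      intro j
      induction j with
      | zero => simp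
      | succ j ihj =>
        calc a ^ (j + 1) * b = a * (a ^ j * b) := by rw [pow_succ', mul_assoc]
          _ = a * (a * b * a⁻¹ * b⁻¹) ^ j * (b * a ^ j) := by rw [ihj, ← mul_assoc]
          _ = (a * b * a⁻¹ * b⁻¹) ^ j * a * (b * a ^ j) := by rw [hcomK a ha _ (K.pow_mem hc j)]
          _ = (a * b * a⁻¹ * b⁻¹) ^ (j + 1) * (b * a ^ (j + 1)) := by
            rw [pow_succ _ j, pow_succ' a j]; group
    have := hswap p
    rw [hKexp _ hc, one_mul] at this
    exact this.symm
  haveI hnormal : (A.subgroupOf A').Normal := ⟨fun x hx g => by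
    have h1 : g * x * g⁻¹ = x := Subtype.ext (by
      simp only [Subgroup.coe_mul, Subgroup.coe_inv]
      have e : (g : G) * ((x : A') : G) = (x : A') * g := (Subgroup.mem_centralizer_iff.1 hx.2) g g.2
      rw [e, mul_inv_cancel_right])
    rwa [h1]⟩
  obtain ⟨e', he'⟩ := IsPGroup.iff_card.1 (show IsPGroup p (A' ⧸ A.subgroupOf A') from fun q => by
    obtain ⟨x, rfl⟩ := QuotientGroup.mk_surjective q
    refine ⟨1, ?_⟩
    rw [pow_one, ← QuotientGroup.mk_pow, QuotientGroup.eq_one_iff]
    exact hpow x x.2)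
  have hrel : A.relIndex A' ≤ p ^ m := by
    rw [Subgroup.relIndex, Subgroup.index_eq_card, he']
    exact card_pgroup_le hm e'
      (he' ▸ ((A.subgroupOf A').card_quotient_dvd_card.trans A'.card_subgroup_dvd_card))
  refine ⟨A, hA, ?_⟩
  rw [← Subgroup.relIndex_mul_index (show A ≤ A' from inf_le_left), mul_comm]
  exact Nat.mul_le_mul hA'idx hrel

/-- The normalizer of a nonscalar abelian subgroup is almost reducible. -/
theorem exists_reducible (ρ : Representation k G V) {D : Subgroup G} (hD : Comm D)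
    (hns : ∃ x ∈ D, ∀ c : k, ρ x ≠ c • 1) :
    ∃ H ≤ Subgroup.normalizer (D : Set G),
      H.relIndex (Subgroup.normalizer (D : Set G)) ≤ Module.finrank k V ∧
      ∃ W : Submodule k V, W ≠ ⊥ ∧ W ≠ ⊤ ∧ ∀ g ∈ H, ∀ v ∈ W, ρ g v ∈ W := by
  obtain ⟨x₀, hx₀, hns⟩ := hns
  haveI : Nontrivial V := by
    by_contra hn
    haveI : Subsingleton V := not_nontrivial_iff_subsingleton.1 hn
    exact hns 0 (LinearMap.ext fun v => Subsingleton.elim _ _)
  -- a common eigenvector
  let P : Submodule k V → Prop := fun W => W ≠ ⊥ ∧ ∀ x ∈ D, ∀ v ∈ W, ρ x v ∈ W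
  have hex : ∃ r, ∃ W, P W ∧ Module.finrank k W = r :=
    ⟨_, ⊤, ⟨top_ne_bot, fun x _ v _ => trivial⟩, rfl⟩
  obtain ⟨W, ⟨hW0, hWD⟩, hWr⟩ := Nat.find_spec hex
  haveI : Nontrivial W := Submodule.nontrivial_iff_ne_bot.2 hW0
  have hscal : ∀ x ∈ D, ∃ μ : k, ∀ v ∈ W, ρ x v = μ • v := by
    intro x hx
    obtain ⟨μ, hμ⟩ := Module.End.exists_eigenvalue ((ρ x).restrict (hWD x hx) : Module.End k W)
    obtain ⟨⟨v, hv⟩, hev⟩ := hμ.exists_hasEigenvector
    refine ⟨μ, fun y hy => ?_⟩
    let W' : Submodule k V := W ⊓ Module.End.eigenspace (ρ x) μ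
    have hvW' : v ∈ W' := ⟨hv, Module.End.mem_eigenspace_iff.2
      (congrArg Subtype.val hev.apply_eq_smul)⟩
    have hW' : P W' := by
      refine ⟨fun e => hev.2 (Subtype.ext ?_), fun z hz u hu => ⟨hWD z hz u hu.1, ?_⟩⟩
      · rw [e, Submodule.mem_bot] at hvW'
        exact hvW'
      · refine Module.End.mem_eigenspace_iff.2 ?_
        rw [← Module.End.mul_apply, ← map_mul, hD x hx z hz, map_mul, Module.End.mul_apply,
          Module.End.mem_eigenspace_iff.1 hu.2, map_smul]
    have hle : W' ≤ W := inf_le_left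
    have heq : W' = W := Submodule.eq_of_le_of_finrank_le hle
      (hWr.le.trans (Nat.find_min' hex ⟨W', hW', rfl⟩))
    exact Module.End.mem_eigenspace_iff.1 (heq.ge hy).2
  choose χ hχ using hscal
  obtain ⟨v₀, hv₀, hv₀0⟩ := (Submodule.ne_bot_iff W).1 hW0
  let wsp : Submodule k V :=
    { carrier := {v | ∀ (x : G) (hx : x ∈ D), ρ x v = χ x hx • v}
      add_mem' := fun {a b} ha hb x hx => by rw [map_add, ha x hx, hb x hx, smul_add]
      zero_mem' := fun x hx => by rw [map_zero, smul_zero]
      smul_mem' := fun c a ha x hx => by rw [map_smul, ha x hx, smul_comm] }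
  set N := Subgroup.normalizer (D : Set G) with hN
  have hconj : ∀ g ∈ N, ∀ x ∈ D, g⁻¹ * x * g ∈ D := fun g hg x hx => by
    have := (Subgroup.mem_normalizer_iff.1 (N.inv_mem hg) x).1 hx
    simpa using this
  let H : Subgroup G := ofFiniteClosed
    { carrier := {g | g ∈ N ∧ ∀ x (hx : x ∈ D) (hx' : g⁻¹ * x * g ∈ D), χ (g⁻¹ * x * g) hx' = χ x hx}
      one_mem' := ⟨N.one_mem, fun x hx hx' => by congr 1; simp⟩
      mul_mem' := fun {a b} ha hb => ⟨N.mul_mem ha.1 hb.1, fun x hx hx' => by
        have h1 := hconj a ha.1 x hx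
        rw [← ha.2 x hx h1, ← hb.2 _ h1 (hconj b hb.1 _ h1)]
        congr 1
        group⟩ }
  have hHN : H ≤ N := fun g hg => hg.1
  refine ⟨H, hHN, ?_, wsp, ?_, ?_, fun g hg v hv x hx => ?_⟩
  · -- distinct weights give independent vectors
    let cs : N ⧸ H.subgroupOf N → G := fun q => ((q.out : N) : G)
    have hcs : ∀ q, cs q ∈ N := fun q => (q.out : N).2
    let wt : (N ⧸ H.subgroupOf N) → ∀ x ∈ D, k := fun q x hx => χ _ (hconj (cs q) (hcs q) x hx)
    let vec : (N ⧸ H.subgroupOf N) → V := fun q => ρ (cs q) v₀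
    have hvec : ∀ q x (hx : x ∈ D), ρ x (vec q) = wt q x hx • vec q := by
      intro q x hx
      show ρ x (ρ (cs q) v₀) = χ _ _ • ρ (cs q) v₀
      rw [← Module.End.mul_apply, ← map_mul,
        show x * cs q = cs q * ((cs q)⁻¹ * x * cs q) by group, map_mul, Module.End.mul_apply,
        hχ _ (hconj (cs q) (hcs q) x hx) v₀ hv₀, map_smul]
    have hsep : ∀ q q', q ≠ q' → ∃ x, ∃ hx : x ∈ D, wt q x hx ≠ wt q' x hx := by
      intro q q' hne
      by_contra hall
      push Not at hall
      refine hne ?_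
      rw [← q.out_eq', ← q'.out_eq', QuotientGroup.eq, Subgroup.mem_subgroupOf]
      refine ⟨(((q.out : N)⁻¹ * (q'.out : N) : N)).2, fun x hx hx' => ?_⟩
      have hy : cs q * x * (cs q)⁻¹ ∈ D := (Subgroup.mem_normalizer_iff.1 (hcs q) x).1 hx
      have h1 := hall _ hy
      simp only [wt] at h1
      refine (Eq.trans ?_ h1.symm).trans ?_ <;> congr 1 <;> simp [cs, mul_assoc]
    have hzero : ∀ g : G, ρ g v₀ ≠ 0 := fun g h0 => hv₀0 (by
      have := congrArg (ρ g⁻¹) h0
      rwa [← Module.End.mul_apply, ← map_mul, inv_mul_cancel, map_one, map_zero] at this)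
    have hli : LinearIndependent k vec := by
      rw [linearIndependent_iff']
      intro s
      induction s using Finset.strongInduction with
      | _ s ihs =>
      intro c hc a ha
      have hrest : ∀ b ∈ s, b ≠ a → c b = 0 := by
        intro b hb hba
        obtain ⟨x, hx, hne⟩ := hsep b a hba
        have h1 : ∑ i ∈ s, (c i * (wt i x hx - wt a x hx)) • vec i = 0 := by
          have h2 := congrArg (ρ x) hc
          rw [map_sum, map_zero] at h2
          simp only [map_smul, hvec _ x hx] at h2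
          simp only [mul_smul, sub_smul, smul_sub, Finset.sum_sub_distrib, h2, zero_sub, neg_eq_zero]
          simp_rw [smul_comm _ (wt a x hx)]
          rw [← Finset.smul_sum, hc, smul_zero]
        rw [← Finset.sum_erase (a := a) s (by rw [sub_self, mul_zero, zero_smul])] at h1
        exact (mul_eq_zero.1 (ihs _ (Finset.erase_ssubset ha) _ h1 b (Finset.mem_erase.2 ⟨hba, hb⟩))).resolve_right
          (sub_ne_zero.2 hne)
      rw [Finset.sum_eq_single_of_mem a ha fun b hb hba => by rw [hrest b hb hba, zero_smul]] at hc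
      exact (smul_eq_zero.1 hc).resolve_right (hzero _)
    haveI : Fintype (N ⧸ H.subgroupOf N) := Fintype.ofFinite _
    rw [Subgroup.relIndex, Subgroup.index_eq_card, Nat.card_eq_fintype_card]
    exact hli.fintype_card_le_finrank
  · exact (Submodule.ne_bot_iff _).2 ⟨v₀, fun x hx => hχ x hx v₀ hv₀, hv₀0⟩
  · intro e
    exact hns (χ x₀ hx₀) (LinearMap.ext fun v => (e.ge (Submodule.mem_top (x := v))) x₀ hx₀)
  · obtain ⟨hgN, hgχ⟩ := hg
    have hx' := hconj g hgN x hx
    rw [← Module.End.mul_apply, ← map_mul, show x * g = g * (g⁻¹ * x * g) by group, map_mul,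
      Module.End.mul_apply, hv _ hx', map_smul, hgχ x hx hx']

/-- The main induction. -/
theorem linJordan : ∀ n, LinJordan.{u, v, w} p m k n (linBound p m n)
  | 0 => fun G _ _ V _ _ _ ρ hρ hn _ => by
    haveI : Subsingleton V := Module.finrank_zero_iff.1 (Nat.le_zero.1 hn)
    have hsub : ∀ g : G, g = 1 := fun g => hρ (LinearMap.ext fun v => Subsingleton.elim _ _)
    exact ⟨⊤, fun a _ b _ => by rw [hsub a, hsub b], by rw [Subgroup.index_top]; exact le_rfl⟩
  | n + 1 => fun G _ _ V _ _ _ ρ hρ hn hm => by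
    set R := redBound p m (linBound p m n) with hR
    by_cases hV : Module.finrank k V = 0
    · haveI : Subsingleton V := Module.finrank_zero_iff.1 hV
      have hsub : ∀ g : G, g = 1 := fun g => hρ (LinearMap.ext fun v => Subsingleton.elim _ _)
      refine ⟨⊤, fun a _ b _ => by rw [hsub a, hsub b], ?_⟩
      rw [Subgroup.index_top]
      refine le_max_of_le_left (Nat.mul_pos n.succ_pos ?_)
      have hl : ∀ i, 1 ≤ linBound p m i := fun i => by
        induction i with
        | zero => exact le_rfl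
        | succ i ihi =>
          refine le_max_of_le_left (Nat.mul_pos i.succ_pos ?_)
          exact Nat.mul_pos (Nat.mul_pos (Nat.mul_pos ihi ihi) (Nat.factorial_pos _)) (pow_pos hp.out.pos _)
      exact Nat.mul_pos (Nat.mul_pos (Nat.mul_pos (hl n) (hl n)) (Nat.factorial_pos _)) (pow_pos hp.out.pos _)
    haveI : Nontrivial V := Module.finrank_pos_iff.1 (Nat.pos_of_ne_zero hV)
    have hlocal : ∀ D : Subgroup G, Comm D → (∃ x ∈ D, ∀ c : k, ρ x ≠ c • 1) →
        ∃ E, E ≤ Subgroup.normalizer (D : Set G) ∧ Comm E ∧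
          E.relIndex (Subgroup.normalizer (D : Set G)) ≤ (n + 1) * R := by
      intro D hD hns
      obtain ⟨H, hHN, hidx, W, hW0, hW1, hWH⟩ := exists_reducible ρ hD hns
      obtain ⟨A, hA, hAidx⟩ := exists_comm_of_invariant (linJordan n) (ρ.comp H.subtype)
        (hρ.comp H.subtype_injective) hn (factorization_subgroup hm H) W hW0 hW1 fun g v hv => hWH g g.2 v hv
      refine ⟨A.map H.subtype, (Subgroup.map_subtype_le A).trans hHN, ?_, ?_⟩
      · rintro _ ⟨a, ha, rfl⟩ _ ⟨b, hb, rfl⟩
        rw [← map_mul, ← map_mul, hA a ha b hb]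
      · rw [← Subgroup.relIndex_mul_relIndex (A.map H.subtype) H _ (Subgroup.map_subtype_le A) hHN,
          mul_comm (n + 1)]
        refine Nat.mul_le_mul ?_ (hidx.trans hn)
        rw [Subgroup.relIndex, Subgroup.subgroupOf, Subgroup.comap_map_eq_self_of_injective H.subtype_injective]
        exact hAidx
    by_cases hnor : ∃ D : Subgroup G, D.Normal ∧ Comm D ∧ ∃ x ∈ D, ∀ c : k, ρ x ≠ c • 1
    · obtain ⟨D, hDn, hDc, hns⟩ := hnor
      obtain ⟨E, -, hEc, hidx⟩ := hlocal D hDc hns
      rw [Subgroup.normalizer_eq_top D, Subgroup.relIndex_top_right] at hidx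
      exact ⟨E, hEc, hidx.trans (le_max_left _ _)⟩
    push Not at hnor
    let Z : Subgroup G := ofFiniteClosed
      { carrier := {g | ∃ c : k, ρ g = c • 1}
        one_mem' := ⟨1, by rw [map_one, one_smul]⟩
        mul_mem' := fun {a b} ⟨c, hc⟩ ⟨c', hc'⟩ =>
          ⟨c * c', by rw [map_mul, hc, hc', smul_mul_smul_comm, mul_one]⟩ }
    have hZc : Z ≤ Subgroup.center G := fun z ⟨c, hc⟩ => Subgroup.mem_center_iff.2 fun g => hρ (by
      rw [map_mul, map_mul, hc, mul_smul_comm, smul_mul_assoc, one_mul, mul_one])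
    haveI : Z.Normal := ⟨fun z hz g => by
      rw [Subgroup.mem_center_iff.1 (hZc hz) g, mul_inv_cancel_right]; exact hz⟩
    have hns : ∀ D : Subgroup G, ¬ D ≤ Z → ∃ x ∈ D, ∀ c : k, ρ x ≠ c • 1 := fun D hD => by
      obtain ⟨x, hx, hxZ⟩ := SetLike.not_le_iff_exists.1 hD
      exact ⟨x, hx, fun c hc => hxZ ⟨c, hc⟩⟩
    let sp : Subgroup G → Submodule k (Module.End k V) := fun A => Submodule.span k (ρ '' (A : Set G))
    let φ : Subgroup G → ℕ := fun A => Module.finrank k (sp A)
    have hmem : ∀ {A : Subgroup G} {g : G}, g ∈ A → ρ g ∈ sp A := fun hg => Submodule.subset_span ⟨_, hg, rfl⟩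
    have hdata : Data Z ((n + 1) * R) ((n + 1) * (n + 1)) φ := by
      refine ⟨hZc, ?_, fun A => ?_, fun A => ?_, fun {A B} hAB => ?_, fun g A => ?_, ?_,
        fun A hA hc => ?_, fun D hD hDZ => hlocal D hD (hns D hDZ)⟩
      · obtain ⟨H, -, hidx⟩ : ∃ H : Subgroup G, True ∧ 1 ≤ H.index :=
          ⟨⊤, trivial, by rw [Subgroup.index_top]⟩
        refine Nat.mul_pos n.succ_pos ?_
        have hl : ∀ i, 1 ≤ linBound p m i := fun i => by
          induction i with
          | zero => exact le_rfl
          | succ i ihi =>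
            refine le_max_of_le_left (Nat.mul_pos i.succ_pos ?_)
            exact Nat.mul_pos (Nat.mul_pos (Nat.mul_pos ihi ihi) (Nat.factorial_pos _)) (pow_pos hp.out.pos _)
        exact Nat.mul_pos (Nat.mul_pos (Nat.mul_pos (hl n) (hl n)) (Nat.factorial_pos _)) (pow_pos hp.out.pos _)
      · refine (Submodule.finrank_le _).trans ?_
        rw [show Module.finrank k (Module.End k V) = Module.finrank k V * Module.finrank k V from
          Module.finrank_linearMap k k V V]
        exact Nat.mul_le_mul hn hn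
      · refine Submodule.one_le_finrank_iff.2 ((Submodule.ne_bot_iff _).2 ⟨1, ?_, one_ne_zero⟩)
        rw [← map_one ρ]
        exact hmem A.one_mem
      · exact Submodule.finrank_mono (Submodule.span_mono (Set.image_mono hAB))
      · let T : Module.End k V ≃ₗ[k] Module.End k V :=
          { toFun := fun f => ρ g * f * ρ g⁻¹
            map_add' := fun a b => by rw [mul_add, add_mul]
            map_smul' := fun c a => by rw [RingHom.id_apply, mul_smul_comm, smul_mul_assoc]
            invFun := fun f => ρ g⁻¹ * f * ρ g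
            left_inv := fun f => by
              show ρ g⁻¹ * (ρ g * f * ρ g⁻¹) * ρ g = f
              rw [← mul_assoc, ← mul_assoc, ← map_mul, inv_mul_cancel, map_one, one_mul, mul_assoc,
                ← map_mul, inv_mul_cancel, map_one, mul_one]
            right_inv := fun f => by
              show ρ g * (ρ g⁻¹ * f * ρ g) * ρ g⁻¹ = f
              rw [← mul_assoc, ← mul_assoc, ← map_mul, mul_inv_cancel, map_one, one_mul, mul_assoc,
                ← map_mul, mul_inv_cancel, map_one, mul_one] }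
        have he : sp (A.map (MulAut.conj g).toMonoidHom) = (sp A).map T.toLinearMap := by
          simp only [sp, Submodule.map_span, Subgroup.coe_map, ← Set.image_comp]
          congr 2
          funext a
          simp [T, mul_assoc]
        show Module.finrank k (sp _) = _
        rw [he]
        exact LinearEquiv.finrank_map_eq T (sp A)
      · intro X A B hA hB hXA hXB hφA hφB
        have heA : sp A = sp X := (Submodule.eq_of_le_of_finrank_eq
          (Submodule.span_mono (Set.image_mono hXA)) hφA.symm).symm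
        have heB : sp B = sp X := (Submodule.eq_of_le_of_finrank_eq
          (Submodule.span_mono (Set.image_mono hXB)) hφB.symm).symm
        have hmul : ∀ a ∈ sp X, ∀ b ∈ sp X, a * b ∈ sp X ∧ a * b = b * a := by
          intro a ha b hb
          induction ha, hb using Submodule.span_induction₂ with
          | mem_mem a b ha hb =>
            obtain ⟨x, hx, rfl⟩ := ha
            obtain ⟨y, hy, rfl⟩ := hb
            rw [← map_mul, ← map_mul, hA x (hXA hx) y (hXA hy)]
            exact ⟨hmem (X.mul_mem hy hx), rfl⟩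
          | zero_left b _ => simp
          | zero_right a _ => simp
          | add_left a b c _ _ _ h1 h2 =>
            rw [add_mul, mul_add, h1.2, h2.2]
            exact ⟨add_mem (h1.2 ▸ h1.1) (h2.2 ▸ h2.1), rfl⟩
          | add_right a b c _ _ _ h1 h2 =>
            rw [add_mul, mul_add, h1.2, h2.2]
            exact ⟨add_mem (h1.2 ▸ h1.1) (h2.2 ▸ h2.1), rfl⟩
          | smul_left r a b _ _ h1 =>
            rw [smul_mul_assoc, mul_smul_comm, h1.2]
            exact ⟨Submodule.smul_mem _ r (h1.2 ▸ h1.1), rfl⟩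
          | smul_right r a b _ _ h1 =>
            rw [smul_mul_assoc, mul_smul_comm, h1.2]
            exact ⟨Submodule.smul_mem _ r (h1.2 ▸ h1.1), rfl⟩
        let S : Subgroup G := ofFiniteClosed
          { carrier := {g | ρ g ∈ sp X}
            one_mem' := hmem X.one_mem
            mul_mem' := fun {a b} ha hb => by
              show ρ (a * b) ∈ sp X
              rw [map_mul]
              exact (hmul _ ha _ hb).1 }
        have hle : A ⊔ B ≤ S := sup_le (fun a ha => (show ρ a ∈ sp X from heA ▸ hmem ha))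
          (fun a ha => (show ρ a ∈ sp X from heB ▸ hmem ha))
        refine ⟨fun a ha b hb => hρ (by rw [map_mul, map_mul]; exact (hmul _ (hle ha) _ (hle hb)).2),
          le_antisymm ?_ (Submodule.finrank_mono (Submodule.span_mono (Set.image_mono (hXA.trans le_sup_left))))⟩
        exact Submodule.finrank_mono (Submodule.span_le.2 (by rintro _ ⟨g, hg, rfl⟩; exact hle hg))
      · intro x hx
        obtain ⟨c, hc⟩ := hnor A hA hc x hx
        exact ⟨c, hc⟩
    exact ⟨Z, fun a ha b _ => (Subgroup.mem_center_iff.1 (hZc ha) b).symm,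
      (hdata.index_le).trans (le_max_right _ _)⟩

end Cfsg.Agent.Lib.ModJordan
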