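import Mathlib.GroupTheory.Index
import Mathlib.GroupTheory.QuotientGroup.Basic
import Mathlib.GroupTheory.Subgroup.Centralizer
import Mathlib.Algebra.Group.Subgroup.Finite
import Mathlib.Tactic.Group

/-!
# Abelian subgroups that are large modulo a central subgroup

Abstract form of Jordan's counting argument: a finite group in which the normalizer of every
noncentral abelian subgroup has an abelian subgroup of bounded index.
-/

set_option autoImplicit false
set_option linter.unusedSectionVars false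

open scoped Classical

namespace Cfsg.Agent.Lib.ModJordan

universe u

variable {G : Type u} [Group G] [Finite G]

/-- Elementwise commutativity. -/
def Comm (A : Subgroup G) : Prop := ∀ a ∈ A, ∀ b ∈ A, a * b = b * a

theorem Comm.mono {A B : Subgroup G} (hA : Comm A) (h : B ≤ A) : Comm B :=
  fun a ha b hb => hA a (h ha) b (h hb)

/-- The hypotheses of the counting argument. -/
structure Data (Z : Subgroup G) (J d : ℕ) (φ : Subgroup G → ℕ) : Prop where
  center : Z ≤ Subgroup.center G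
  one_le : 1 ≤ J
  le_d : ∀ A, φ A ≤ d
  pos : ∀ A, 1 ≤ φ A
  mono : ∀ {A B : Subgroup G}, A ≤ B → φ A ≤ φ B
  conj : ∀ (g : G) (A : Subgroup G), φ (A.map (MulAut.conj g).toMonoidHom) = φ A
  join : ∀ {X A B : Subgroup G}, Comm A → Comm B → X ≤ A → X ≤ B → φ A = φ X → φ B = φ X →
    Comm (A ⊔ B) ∧ φ (A ⊔ B) = φ X
  normal : ∀ A : Subgroup G, A.Normal → Comm A → A ≤ Z
  localAb : ∀ D : Subgroup G, Comm D → ¬ D ≤ Z →
    ∃ E, E ≤ Subgroup.normalizer (D : Set G) ∧ Comm E ∧
      E.relIndex (Subgroup.normalizer (D : Set G)) ≤ J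

theorem ri_ne (X A : Subgroup G) : X.relIndex A ≠ 0 := Subgroup.index_ne_zero_of_finite

theorem ri_pos (X A : Subgroup G) : 1 ≤ X.relIndex A := Nat.one_le_iff_ne_zero.2 (ri_ne X A)

theorem ri_le_right {X A B : Subgroup G} (h : A ≤ B) : X.relIndex A ≤ X.relIndex B :=
  Subgroup.relIndex_le_of_le_right h (ri_ne X B)

theorem ri_le_left {X Y A : Subgroup G} (h : X ≤ Y) : Y.relIndex A ≤ X.relIndex A :=
  Subgroup.relIndex_le_of_le_left h (ri_ne X A)

theorem ri_trans (D B A : Subgroup G) : D.relIndex A ≤ D.relIndex B * B.relIndex A := by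
  calc D.relIndex A ≤ (D ⊓ B).relIndex A := ri_le_left inf_le_left
    _ = D.relIndex (B ⊓ A) * B.relIndex A := (Subgroup.relIndex_inf_mul_relIndex D B A).symm
    _ ≤ D.relIndex B * B.relIndex A := Nat.mul_le_mul_right _ (ri_le_right inf_le_left)

/-- The chain of losses. -/
def loss (J : ℕ) : ℕ → ℕ
  | 0 => 1
  | t + 1 => J * loss J t ^ 2

theorem one_le_loss {J : ℕ} (hJ : 1 ≤ J) : ∀ t, 1 ≤ loss J t
  | 0 => le_rfl
  | t + 1 => Nat.one_le_iff_ne_zero.2 (Nat.mul_ne_zero (by omega)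
      (pow_ne_zero _ (Nat.one_le_iff_ne_zero.1 (one_le_loss hJ t))))

theorem loss_mono {J : ℕ} (hJ : 1 ≤ J) : Monotone (loss J) :=
  monotone_nat_of_le_succ fun t => by
    calc loss J t ≤ loss J t ^ 2 := Nat.le_self_pow (by decide) _
      _ ≤ J * loss J t ^ 2 := Nat.le_mul_of_pos_left _ hJ

/-- The loss above level `k`. -/
def lossAt (J d k : ℕ) : ℕ := loss J (d - k)

/-- The uniform bound. -/
def tol (J d : ℕ) : ℕ := J * lossAt J d 0

variable {Z : Subgroup G} {J d : ℕ} {φ : Subgroup G → ℕ}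

/-- The index of `Z` in a subgroup. -/
noncomputable def rk (Z A : Subgroup G) : ℕ := Z.relIndex A

theorem rk_mono {A B : Subgroup G} (h : A ≤ B) : rk Z A ≤ rk Z B := ri_le_right h

theorem one_lt_rk {A : Subgroup G} : 1 < rk Z A ↔ ¬ A ≤ Z := by
  rw [← Subgroup.relIndex_eq_one]
  have := ri_pos Z A
  unfold rk
  omega

theorem rk_le {A X : Subgroup G} (hX : Z ≤ X) : rk Z A ≤ rk Z (X ⊓ A) * X.relIndex A := by
  have h1 : rk Z (X ⊓ A) * X.relIndex A = (Z ⊓ X).relIndex A := Subgroup.relIndex_inf_mul_relIndex Z X A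
  rw [inf_eq_left.2 hX] at h1
  exact h1.symm.le

/-- Stability of the potential under small index. -/
def Stable (Z : Subgroup G) (J d : ℕ) (φ : Subgroup G → ℕ) (A : Subgroup G) : Prop :=
  ∀ X ≤ A, Z ≤ X → X.relIndex A ≤ J * lossAt J d (φ A) → φ X = φ A

/-- Stable and closed abelian subgroups. -/
def Good (Z : Subgroup G) (J d : ℕ) (φ : Subgroup G → ℕ) (D : Subgroup G) : Prop :=
  Z ≤ D ∧ Comm D ∧ Stable Z J d φ D ∧ ∀ A, Comm A → D ≤ A → φ A = φ D → A ≤ D

/-- Good subgroups that no good subgroup refines. -/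
def Top (Z : Subgroup G) (J d : ℕ) (φ : Subgroup G → ℕ) (D : Subgroup G) : Prop :=
  Good Z J d φ D ∧ ¬ D ≤ Z ∧ ∀ D', Good Z J d φ D' → D'.relIndex D ≤ tol J d → φ D' ≤ φ D

namespace Data

variable (h : Data Z J d φ)

include h

theorem lossAt_anti {i k : ℕ} (hik : i ≤ k) : lossAt J d k ≤ lossAt J d i :=
  loss_mono h.one_le (Nat.sub_le_sub_left hik d)

theorem one_le_lossAt (k : ℕ) : 1 ≤ lossAt J d k := one_le_loss h.one_le _

theorem lossAt_step {i : ℕ} (hi : 1 ≤ i) (hid : i ≤ d) :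
    J * lossAt J d i ^ 2 = lossAt J d (i - 1) := by
  unfold lossAt
  rw [show d - (i - 1) = (d - i) + 1 by omega]
  rfl

theorem le_tol (k : ℕ) : J * lossAt J d k ≤ tol J d :=
  Nat.mul_le_mul_left _ (h.lossAt_anti (Nat.zero_le k))

theorem J_le_tol : J ≤ tol J d := Nat.le_mul_of_pos_right _ (h.one_le_lossAt 0)

theorem one_le_tol : 1 ≤ tol J d := h.one_le.trans h.J_le_tol

theorem comm_sup_center {A : Subgroup G} (hA : Comm A) : Comm (A ⊔ Z) := by
  haveI : Z.Normal := ⟨fun n hn g => by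
    rw [(Subgroup.mem_center_iff.1 (h.center hn) g), mul_inv_cancel_right]; exact hn⟩
  intro a ha b hb
  obtain ⟨a', ha', z, hz, rfl⟩ := Subgroup.mem_sup_of_normal_right.1 ha
  obtain ⟨b', hb', w, hw, rfl⟩ := Subgroup.mem_sup_of_normal_right.1 hb
  have hz' : ∀ g, g * z = z * g := Subgroup.mem_center_iff.1 (h.center hz)
  have hw' : ∀ g, g * w = w * g := Subgroup.mem_center_iff.1 (h.center hw)
  calc a' * z * (b' * w) = a' * (z * b') * w := by group
    _ = a' * (b' * z) * w := by rw [hz' b']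
    _ = (a' * b') * (z * w) := by group
    _ = (b' * a') * (w * z) := by rw [hA a' ha' b' hb', hw' z]
    _ = b' * (a' * w) * z := by group
    _ = b' * (w * a') * z := by rw [hw' a']
    _ = b' * w * (a' * z) := by group

theorem center_le_normalizer (D : Subgroup G) : Z ≤ Subgroup.normalizer (D : Set G) := fun z hz =>
  Subgroup.mem_normalizer_iff.2 fun k => by
    rw [← Subgroup.mem_center_iff.1 (h.center hz) k, mul_inv_cancel_right]

/-- The local abelian subgroup, containing the central subgroup. -/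
theorem exists_local {D : Subgroup G} (hD : Comm D) (hDZ : ¬ D ≤ Z) :
    ∃ E, Z ≤ E ∧ E ≤ Subgroup.normalizer (D : Set G) ∧ Comm E ∧
      E.relIndex (Subgroup.normalizer (D : Set G)) ≤ J := by
  obtain ⟨E, hEN, hEc, hidx⟩ := h.localAb D hD hDZ
  exact ⟨E ⊔ Z, le_sup_right, sup_le hEN (h.center_le_normalizer D), h.comm_sup_center hEc,
    (ri_le_left le_sup_left).trans hidx⟩

/-- Descent to a stable subgroup. -/
theorem stabilise (k : ℕ) {E : Subgroup G} (hZE : Z ≤ E) :
    ∃ E' ≤ E, Z ≤ E' ∧ E'.relIndex E ≤ lossAt J d k ∧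
      (φ E' ≤ k ∨ (k < φ E' ∧ Stable Z J d φ E')) := by
  by_cases hk : φ E ≤ k
  · exact ⟨E, le_rfl, hZE, by rw [Subgroup.relIndex_self]; exact h.one_le_lossAt k, Or.inl hk⟩
  suffices key : ∀ (i : ℕ) (E : Subgroup G), φ E = i → k < i → Z ≤ E →
      ∃ E' ≤ E, Z ≤ E' ∧ E'.relIndex E * lossAt J d i ≤ lossAt J d k ∧
        (φ E' ≤ k ∨ (k < φ E' ∧ Stable Z J d φ E')) by
    obtain ⟨E', h1, h2, h3, h4⟩ := key _ E rfl (not_le.1 hk) hZE
    exact ⟨E', h1, h2, (Nat.le_mul_of_pos_right _ (h.one_le_lossAt _)).trans h3, h4⟩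
  intro i
  induction i using Nat.strong_induction_on with
  | _ i ih =>
  intro E hi hki hZE
  by_cases hst : Stable Z J d φ E
  · exact ⟨E, le_rfl, hZE, by rw [Subgroup.relIndex_self, one_mul]; exact h.lossAt_anti hki.le,
      Or.inr ⟨hi ▸ hki, hst⟩⟩
  unfold Stable at hst
  push Not at hst
  obtain ⟨X, hXE, hZX, hidx, hne⟩ := hst
  have hlt : φ X < i := hi ▸ lt_of_le_of_ne (h.mono hXE) hne
  have hid : i ≤ d := hi ▸ h.le_d E
  rw [hi] at hidx
  have hstep : X.relIndex E * lossAt J d i ≤ lossAt J d (i - 1) := by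
    rw [← h.lossAt_step (by omega) hid, pow_two, ← mul_assoc]
    exact Nat.mul_le_mul_right _ hidx
  by_cases hXk : φ X ≤ k
  · exact ⟨X, hXE, hZX, hstep.trans (h.lossAt_anti (by omega)), Or.inl hXk⟩
  · obtain ⟨E', h1, h2, h3, h4⟩ := ih (φ X) hlt X rfl (not_le.1 hXk) hZX
    refine ⟨E', h1.trans hXE, h2, ?_, h4⟩
    rw [← Subgroup.relIndex_mul_relIndex E' X E h1 hXE, mul_assoc]
    exact (Nat.mul_le_mul_left _ (hstep.trans (h.lossAt_anti (Nat.le_pred_of_lt hlt)))).trans h3

/-- Closing a stable subgroup. -/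
theorem exists_good {E : Subgroup G} (hZE : Z ≤ E) (hE : Comm E) (hst : Stable Z J d φ E) :
    ∃ D, Good Z J d φ D ∧ E ≤ D ∧ φ D = φ E := by
  haveI : Finite (Subgroup G) := Finite.of_injective (fun A : Subgroup G => (A : Set G)) SetLike.coe_injective
  haveI : Fintype (Subgroup G) := Fintype.ofFinite _
  obtain ⟨D, hD, hmax⟩ := Finset.exists_max_image
    (Finset.univ.filter fun A : Subgroup G => Comm A ∧ E ≤ A ∧ φ A = φ E) (fun A => Nat.card A)
    ⟨E, Finset.mem_filter.2 ⟨Finset.mem_univ _, hE, le_rfl, rfl⟩⟩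
  obtain ⟨-, hDc, hED, hφ⟩ := Finset.mem_filter.1 hD
  refine ⟨D, ⟨hZE.trans hED, hDc, fun X hXD hZX hidx => ?_, fun A hA hDA hAφ => ?_⟩, hED, hφ⟩
  · have h1 : φ (X ⊓ E) = φ E := hst _ inf_le_right (le_inf hZX hZE) (by
      rw [Subgroup.inf_relIndex_right, ← hφ]
      exact (ri_le_right hED).trans hidx)
    exact le_antisymm (h.mono hXD) (by rw [hφ, ← h1]; exact h.mono inf_le_left)
  · have h1 := hmax A (Finset.mem_filter.2 ⟨Finset.mem_univ _, hA, hED.trans hDA, hAφ.trans hφ⟩)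
    exact (Subgroup.eq_of_le_of_card_ge hDA h1).ge

/-- An abelian subgroup sharing a noncentral element with a top subgroup is almost inside it. -/
theorem share {D A : Subgroup G} (hD : Top Z J d φ D) (hZA : Z ≤ A) (hA : Comm A)
    (hAD : ¬ A ⊓ D ≤ Z) : D.relIndex A ≤ J * lossAt J d (φ D) := by
  obtain ⟨⟨hZD, hDc, hDs, hDcl⟩, -, hDtop⟩ := hD
  obtain ⟨E, hZE, -, hEc, hidx⟩ := h.exists_local (hA.mono inf_le_left) hAD
  have hcent : ∀ B : Subgroup G, Comm B → A ⊓ D ≤ B →
      B ≤ Subgroup.normalizer ((A ⊓ D : Subgroup G) : Set G) := fun B hB hle b hb =>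
    Subgroup.mem_normalizer_iff.2 fun k => by
      constructor
      · intro hk
        rwa [hB b hb k (hle hk), mul_inv_cancel_right]
      · intro hk
        have h1 := hB b hb _ (hle hk)
        rw [inv_mul_cancel_right] at h1
        rwa [mul_left_cancel h1] at hk
  have hED : E.relIndex D ≤ J := (ri_le_right (hcent D hDc inf_le_right)).trans hidx
  have hEA : E.relIndex A ≤ J := (ri_le_right (hcent A hA inf_le_left)).trans hidx
  obtain ⟨E', hE'E, hZE', hloss, hcase⟩ := h.stabilise (φ D) hZE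
  have hE'D : E'.relIndex D ≤ J * lossAt J d (φ D) := by
    rw [mul_comm J]
    exact (ri_trans E' E D).trans (Nat.mul_le_mul hloss hED)
  rcases hcase with hle | ⟨hlt, hst⟩
  · have h1 : φ (E' ⊓ D) = φ D := hDs _ inf_le_right (le_inf hZE' hZD) (by
      rwa [Subgroup.inf_relIndex_right])
    have h2 : φ E' = φ (E' ⊓ D) := le_antisymm (h1 ▸ hle) (h.mono inf_le_left)
    obtain ⟨hc, hφ⟩ := h.join hDc (hEc.mono hE'E) inf_le_right inf_le_left h1.symm h2
    have h3 : E' ≤ D := le_sup_right.trans (hDcl _ hc le_sup_left (hφ.trans h1))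
    refine (ri_le_left h3).trans ?_
    rw [mul_comm J]
    exact (ri_trans E' E A).trans (Nat.mul_le_mul hloss hEA)
  · obtain ⟨D', hD', hED', hφ'⟩ := h.exists_good hZE' (hEc.mono hE'E) hst
    have := hDtop D' hD' ((ri_le_left hED').trans (hE'D.trans (h.le_tol _)))
    omega

/-- Top subgroups sharing a noncentral element are equal. -/
theorem top_eq {D D' : Subgroup G} (hD : Top Z J d φ D) (hD' : Top Z J d φ D') (hne : ¬ D ⊓ D' ≤ Z) :
    D = D' := by
  have h1 : D'.relIndex D ≤ J * lossAt J d (φ D') := h.share hD' hD.1.1 hD.1.2.1 hne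
  have h2 : D.relIndex D' ≤ J * lossAt J d (φ D) := h.share hD hD'.1.1 hD'.1.2.1 (by rwa [inf_comm])
  have e : φ D' = φ D := le_antisymm (hD.2.2 D' hD'.1 (h1.trans (h.le_tol _)))
    (hD'.2.2 D hD.1 (h2.trans (h.le_tol _)))
  have hX : φ (D ⊓ D') = φ D := hD.1.2.2.1 _ inf_le_left (le_inf hD.1.1 hD'.1.1) (by
    rw [inf_comm, Subgroup.inf_relIndex_right, ← e]; exact h1)
  obtain ⟨hc, hφ⟩ := h.join hD.1.2.1 hD'.1.2.1 inf_le_left inf_le_right hX.symm (e.trans hX.symm)
  exact le_antisymm (le_sup_left.trans (hD'.1.2.2.2 _ hc le_sup_right (by rw [hφ, hX, e])))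
    (le_sup_right.trans (hD.1.2.2.2 _ hc le_sup_left (by rw [hφ, hX])))

/-- Climbing to a top subgroup. -/
theorem climb {B : Subgroup G} {L : ℕ} (hL : 1 ≤ L) :
    ∀ (t : ℕ) (D : Subgroup G), d - φ D ≤ t → Good Z J d φ D → tol J d ^ t * L < rk Z (B ⊓ D) →
      ∃ D', Top Z J d φ D' ∧ L < rk Z (B ⊓ D') := by
  intro t
  induction t with
  | zero =>
    intro D ht hD hr
    rw [pow_zero, one_mul] at hr
    refine ⟨D, ⟨hD, ?_, fun D' _ _ => ?_⟩, hr⟩
    · exact one_lt_rk.1 ((lt_of_le_of_lt hL hr).trans_le (rk_mono inf_le_right))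
    · have := h.le_d D'
      omega
  | succ t ih =>
    intro D ht hD hr
    have hL' : L ≤ tol J d ^ (t + 1) * L := Nat.le_mul_of_pos_left _ (pow_pos h.one_le_tol _)
    have hr' : L < rk Z (B ⊓ D) := lt_of_le_of_lt hL' hr
    by_cases htop : ∀ D', Good Z J d φ D' → D'.relIndex D ≤ tol J d → φ D' ≤ φ D
    · exact ⟨D, ⟨hD, one_lt_rk.1 ((lt_of_le_of_lt hL hr').trans_le (rk_mono inf_le_right)), htop⟩, hr'⟩
    push Not at htop
    obtain ⟨D', hD', hidx, hlt⟩ := htop
    refine ih D' (by omega) hD' ?_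
    have h1 : rk Z (B ⊓ D) ≤ rk Z (B ⊓ D') * tol J d :=
      (rk_le hD'.1).trans (Nat.mul_le_mul (rk_mono (le_inf (inf_le_right.trans inf_le_left) inf_le_left))
        ((ri_le_right inf_le_right).trans hidx))
    rw [pow_succ, mul_right_comm] at hr
    exact Nat.lt_of_mul_lt_mul_right (hr.trans_le h1)

/-- A large abelian subgroup meets a top subgroup largely. -/
theorem exists_top {B : Subgroup G} (hZB : Z ≤ B) (hB : Comm B) {L : ℕ} (hL : 1 ≤ L)
    (hr : tol J d ^ (d + 1) * L < rk Z B) : ∃ D, Top Z J d φ D ∧ L < rk Z (B ⊓ D) := by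
  obtain ⟨E', hE'B, hZE', hloss, hcase⟩ := h.stabilise 0 hZB
  rcases hcase with h0 | ⟨-, hst⟩
  · have := h.pos E'
    omega
  obtain ⟨D, hD, hED, -⟩ := h.exists_good hZE' (hB.mono hE'B) hst
  refine h.climb hL d D (Nat.sub_le _ _) hD ?_
  have h1 : rk Z B ≤ rk Z (B ⊓ D) * tol J d :=
    (rk_le hZE').trans (Nat.mul_le_mul (rk_mono (le_inf inf_le_right (inf_le_left.trans hED)))
      (hloss.trans (Nat.le_mul_of_pos_left _ h.one_le)))
  rw [pow_succ, mul_right_comm] at hr
  exact Nat.lt_of_mul_lt_mul_right (hr.trans_le h1)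

/-- The conjugate of a top subgroup is a top subgroup. -/
theorem top_conj {D : Subgroup G} (g : G) (hD : Top Z J d φ D) :
    Top Z J d φ (D.map (MulAut.conj g).toMonoidHom) := by
  have hZfix : ∀ g : G, Z.map (MulAut.conj g).toMonoidHom = Z := fun g => by
    ext x
    rw [Subgroup.mem_map]
    constructor
    · rintro ⟨z, hz, rfl⟩
      show g * z * g⁻¹ ∈ Z
      rw [Subgroup.mem_center_iff.1 (h.center hz) g, mul_inv_cancel_right]
      exact hz
    · intro hx
      refine ⟨x, hx, ?_⟩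
      show g * x * g⁻¹ = x
      rw [Subgroup.mem_center_iff.1 (h.center hx) g, mul_inv_cancel_right]
  have hback : ∀ (g : G) (A : Subgroup G),
      (A.map (MulAut.conj g⁻¹).toMonoidHom).map (MulAut.conj g).toMonoidHom = A := fun g A => by
    ext x
    simp only [Subgroup.mem_map, MulEquiv.coe_toMonoidHom, MulAut.conj_apply]
    constructor
    · rintro ⟨y, ⟨z, hz, rfl⟩, rfl⟩
      simpa [mul_assoc] using hz
    · intro hx
      exact ⟨_, ⟨x, hx, rfl⟩, by simp [mul_assoc]⟩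
  have hinj : ∀ g : G, Function.Injective (MulAut.conj g).toMonoidHom := fun g =>
    (MulAut.conj g).injective
  have hri : ∀ (g : G) (X A : Subgroup G), (X.map (MulAut.conj g).toMonoidHom).relIndex
      (A.map (MulAut.conj g).toMonoidHom) = X.relIndex A := fun g X A =>
    Subgroup.relIndex_map_map_of_injective X A (hinj g)
  have hcomm : ∀ (g : G) {A : Subgroup G}, Comm A → Comm (A.map (MulAut.conj g).toMonoidHom) := by
    rintro g A hA _ ⟨a, ha, rfl⟩ _ ⟨b, hb, rfl⟩
    rw [← map_mul, ← map_mul, hA a ha b hb]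
  have hgood : ∀ (g : G) {A : Subgroup G}, Good Z J d φ A →
      Good Z J d φ (A.map (MulAut.conj g).toMonoidHom) := by
    intro g A hA
    obtain ⟨hZA, hAc, hAs, hAcl⟩ := hA
    refine ⟨(hZfix g).ge.trans (Subgroup.map_mono hZA), hcomm g hAc, fun X hX hZX hidx => ?_,
      fun B hB hle hφ => ?_⟩
    · rw [← hback g X] at hX hidx ⊢
      rw [hri, h.conj g A] at hidx
      rw [h.conj g (X.map (MulAut.conj g⁻¹).toMonoidHom), h.conj g A]
      refine hAs _ ((Subgroup.map_le_map_iff_of_injective (hinj g)).1 hX) ?_ hidx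
      exact (hZfix g⁻¹).ge.trans (Subgroup.map_mono hZX)
    · rw [← hback g B] at hle hφ ⊢
      rw [h.conj g (B.map (MulAut.conj g⁻¹).toMonoidHom), h.conj g A] at hφ
      exact Subgroup.map_mono (hAcl _ (hcomm g⁻¹ hB) ((Subgroup.map_le_map_iff_of_injective (hinj g)).1 hle) hφ)
  refine ⟨hgood g hD.1, fun hle => hD.2.1 ?_, fun D' hD' hidx => ?_⟩
  · rw [← hZfix g] at hle
    exact (Subgroup.map_le_map_iff_of_injective (hinj g)).1 hle
  · rw [← hback g D', hri] at hidx
    rw [h.conj g D]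
    have := hD.2.2 _ (hgood g⁻¹ hD') hidx
    rwa [h.conj g⁻¹ D'] at this

/-- The normalizer of a large top subgroup is not much larger. -/
theorem relIndex_normalizer_le {D : Subgroup G} (hD : Top Z J d φ D) (hr : J < rk Z D) :
    D.relIndex (Subgroup.normalizer (D : Set G)) ≤ tol J d * J := by
  obtain ⟨E, hZE, hEN, hEc, hidx⟩ := h.exists_local hD.1.2.1 hD.2.1
  have h1 : rk Z D ≤ rk Z (E ⊓ D) * J :=
    (rk_le hZE).trans (Nat.mul_le_mul_left _ ((ri_le_right Subgroup.le_normalizer).trans hidx))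
  have h2 : ¬ E ⊓ D ≤ Z := by
    rw [← one_lt_rk (Z := Z)]
    by_contra hle
    have := h1.trans (Nat.mul_le_mul_right J (not_lt.1 hle))
    omega
  exact (ri_trans D E _).trans (Nat.mul_le_mul ((h.share hD hZE hEc h2).trans (h.le_tol _)) hidx)

end Data

end Cfsg.Agent.Lib.ModJordan
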